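import Mathlib
import Cfsg.Prelude.Def_Characters
set_option linter.all false

-- part: H599/Unitary
section
/-!
# Finite groups of unitary matrices: elements near a scalar commute

`Inv ρ φ` : `φ : V → E` is an injective linear map into an inner product space such that the
pulled back inner product is `G`-invariant.

* `exists_inv` : existence of an invariant inner product.
* `eigen_norm_sub_le` : if all eigenvalues of `ρ x` are at distance at most `q` from `c`, then
  `‖ρ x - c‖ ≤ q`.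
* `comm_of_near` : if `‖ρ x - c‖ < 1/2` and `‖ρ y - 1‖ < √2` then `x` and `y` commute
  (Frobenius, Blichfeldt).
-/

set_option autoImplicit false

namespace Cfsg.Agent.H599.Unitary

open Module

variable {G : Type*} [Group G] {V : Type*} [AddCommGroup V] [Module ℂ V]
  {E : Type*} [NormedAddCommGroup E] [InnerProductSpace ℂ E]

/-- `φ` embeds `V` in an inner product space, the induced inner product is invariant. -/
def Inv (ρ : Representation ℂ G V) (φ : V →ₗ[ℂ] E) : Prop :=
  Function.Injective φ ∧ ∀ g v w, inner ℂ (φ (ρ g v)) (φ (ρ g w)) = inner ℂ (φ v) (φ w)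

theorem exists_inv [Fintype G] {n : ℕ} (ρ : Representation ℂ G (Fin n → ℂ)) :
    ∃ φ : (Fin n → ℂ) →ₗ[ℂ] EuclideanSpace ℂ (G × Fin n), Inv ρ φ := by
  refine ⟨{ toFun := fun v => WithLp.toLp 2 (fun p => ρ p.1 v p.2),
            map_add' := ?_,
            map_smul' := ?_ }, ?_, ?_⟩
  · intro v w
    ext p
    simp
  · intro c v
    ext p
    simp
  · intro v w h
    funext i
    have h1 := congrArg (fun f : EuclideanSpace ℂ (G × Fin n) => f (1, i)) h
    simpa using h1
  · intro g v w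
    simp only [LinearMap.coe_mk, AddHom.coe_mk, PiLp.inner_apply, Fintype.sum_prod_type]
    refine Fintype.sum_equiv (Equiv.mulRight g) _ _ fun x => ?_
    refine Finset.sum_congr rfl fun i _ => ?_
    simp only [Equiv.coe_mulRight, map_mul, Module.End.mul_apply]

section

variable {ρ : Representation ℂ G V} {φ : V →ₗ[ℂ] E}

theorem Inv.norm (h : Inv ρ φ) (g : G) (v : V) : ‖φ (ρ g v)‖ = ‖φ v‖ := by
  have h1 := h.2 g v v
  rw [inner_self_eq_norm_sq_to_K, inner_self_eq_norm_sq_to_K] at h1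
  have h2 : ‖φ (ρ g v)‖ ^ 2 = ‖φ v‖ ^ 2 := by exact_mod_cast h1
  exact (pow_left_inj₀ (norm_nonneg _) (norm_nonneg _) two_ne_zero).1 h2

theorem Inv.norm_pos (h : Inv ρ φ) {v : V} (hv : v ≠ 0) : 0 < ‖φ v‖ := by
  rw [norm_pos_iff]
  intro h0
  exact hv (h.1 (by rw [h0, map_zero]))

theorem Inv.norm_eigen (h : Inv ρ φ) {g : G} {v : V} {a : ℂ} (hv : v ≠ 0)
    (ha : ρ g v = a • v) : ‖a‖ = 1 := by
  have h1 := h.norm g v
  rw [ha, map_smul, norm_smul] at h1
  have h2 := h.norm_pos hv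
  exact mul_right_cancel₀ h2.ne' (by rw [h1, one_mul])

theorem Inv.orth (h : Inv ρ φ) {g : G} {v w : V} {a b : ℂ} (ha : ρ g v = a • v)
    (hb : ρ g w = b • w) (hab : a ≠ b) : inner ℂ (φ v) (φ w) = 0 := by
  by_cases hv : v = 0
  · rw [hv, map_zero, inner_zero_left]
  by_contra hne
  have h1 := h.2 g v w
  rw [ha, hb, map_smul, map_smul, inner_smul_left, inner_smul_right, ← mul_assoc] at h1
  have h2 : (starRingEnd ℂ) a * b = 1 := mul_right_cancel₀ hne (by rw [h1, one_mul])
  have h3 : (starRingEnd ℂ) a * a = 1 := by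
    rw [mul_comm, Complex.mul_conj, Complex.normSq_eq_norm_sq, h.norm_eigen hv ha]
    simp
  have h4 : (starRingEnd ℂ) a ≠ 0 := left_ne_zero_of_mul_eq_one h3
  exact hab (mul_left_cancel₀ h4 (by rw [h3, h2]))

theorem norm_sum_sq {ι : Type*} (s : Finset ι) (u : ι → E)
    (h : ∀ i ∈ s, ∀ j ∈ s, i ≠ j → inner ℂ (u i) (u j) = 0) :
    ‖∑ i ∈ s, u i‖ ^ 2 = ∑ i ∈ s, ‖u i‖ ^ 2 := by
  classical
  induction s using Finset.induction_on with
  | empty => simp
  | insert a s ha ih =>
    rw [Finset.sum_insert ha, Finset.sum_insert ha, ← ih (fun i hi j hj hij =>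
      h i (Finset.mem_insert_of_mem hi) j (Finset.mem_insert_of_mem hj) hij)]
    have h1 : inner ℂ (u a) (∑ i ∈ s, u i) = 0 := by
      rw [inner_sum]
      refine Finset.sum_eq_zero fun i hi => ?_
      exact h a (Finset.mem_insert_self _ _) i (Finset.mem_insert_of_mem hi)
        (fun h' => ha (h' ▸ hi))
    have h2 := norm_add_sq (𝕜 := ℂ) (u a) (∑ i ∈ s, u i)
    rw [h2, h1]
    simp

/-- eigenvector decomposition -/
theorem exists_eigen_sum [FiniteDimensional ℂ V] (f : Module.End ℂ V) {n : ℕ} (hn : n ≠ 0)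
    (hf : f ^ n = 1) (v : V) : ∃ (s : Finset ℂ) (u : ℂ → V), (∀ a ∈ s, f (u a) = a • u a) ∧
      ∑ a ∈ s, u a = v := by
  classical
  have hss : Module.End.IsSemisimple f := by
    refine Module.End.isSemisimple_of_squarefree_aeval_eq_zero (p := Polynomial.X ^ n - 1) ?_ ?_
    · have : (n : ℂ) ≠ 0 := by exact_mod_cast hn
      have h := Polynomial.separable_X_pow_sub_C (1 : ℂ) this one_ne_zero
      rw [map_one] at h
      exact h.squarefree
    · simp [hf]
  have htop := hss.iSup_eigenspace_eq_top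
  have hv : v ∈ ⨆ μ : ℂ, Module.End.eigenspace f μ := by rw [htop]; trivial
  rw [Submodule.mem_iSup_iff_exists_finsupp] at hv
  obtain ⟨u, hu, hsum⟩ := hv
  refine ⟨u.support, u, fun a _ => ?_, hsum⟩
  exact Module.End.mem_eigenspace_iff.1 (hu a)

theorem eigen_norm_sub_le [FiniteDimensional ℂ V] [Finite G] (h : Inv ρ φ) (x : G) (c : ℂ) (q : ℝ)
    (hq : 0 ≤ q) (hx : ∀ (a : ℂ) (v : V), v ≠ 0 → ρ x v = a • v → ‖a - c‖ ≤ q) (v : V) :
    ‖φ (ρ x v - c • v)‖ ≤ q * ‖φ v‖ := by
  classical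
  obtain ⟨s, u, hu, rfl⟩ := exists_eigen_sum (ρ x) (n := Nat.card G) Nat.card_pos.ne'
    (by rw [← map_pow, pow_card_eq_one', map_one]) v
  have h1 : ρ x (∑ a ∈ s, u a) - c • (∑ a ∈ s, u a) = ∑ a ∈ s, (a - c) • u a := by
    rw [map_sum, Finset.smul_sum, ← Finset.sum_sub_distrib]
    refine Finset.sum_congr rfl fun a ha => ?_
    rw [hu a ha, sub_smul]
  rw [h1]
  have horth : ∀ a ∈ s, ∀ b ∈ s, a ≠ b → inner ℂ (φ (u a)) (φ (u b)) = 0 := fun a ha b hb hab =>
    h.orth (hu a ha) (hu b hb) hab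
  have h2 : ‖φ (∑ a ∈ s, u a)‖ ^ 2 = ∑ a ∈ s, ‖φ (u a)‖ ^ 2 := by
    rw [map_sum, norm_sum_sq s (fun a => φ (u a)) horth]
  have h3 : ‖φ (∑ a ∈ s, (a - c) • u a)‖ ^ 2 = ∑ a ∈ s, ‖a - c‖ ^ 2 * ‖φ (u a)‖ ^ 2 := by
    rw [map_sum, norm_sum_sq s (fun a => φ ((a - c) • u a))]
    · refine Finset.sum_congr rfl fun a _ => ?_
      rw [map_smul, norm_smul, mul_pow]
    · intro a ha b hb hab
      show inner ℂ (φ ((a - c) • u a)) (φ ((b - c) • u b)) = 0
      rw [map_smul, map_smul, inner_smul_left, inner_smul_right, horth a ha b hb hab, mul_zero,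
        mul_zero]
  have h4 : ‖φ (∑ a ∈ s, (a - c) • u a)‖ ^ 2 ≤ (q * ‖φ (∑ a ∈ s, u a)‖) ^ 2 := by
    rw [h3, mul_pow, h2, Finset.mul_sum]
    refine Finset.sum_le_sum fun a ha => ?_
    by_cases hua : u a = 0
    · rw [hua, map_zero, norm_zero]
      simp
    · have := hx a (u a) hua (hu a ha)
      gcongr
  exact (pow_le_pow_iff_left₀ (norm_nonneg _) (by positivity) two_ne_zero).1 h4

theorem comm_of_rep_eq (hρ : Function.Injective ρ) {x y : G} (h : ρ (x * y) = ρ (y * x)) :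
    x * y = y * x := hρ h

/-- Frobenius' lemma: if `x` commutes with `y x y⁻¹` and `‖ρ y - 1‖ < √2`, then `x` and `y`
commute. -/
theorem comm_of_comm_conj [FiniteDimensional ℂ V] [Finite G] (h : Inv ρ φ)
    (hρ : Function.Injective ρ) {x y : G} (hxy : x * (y * x * y⁻¹) = (y * x * y⁻¹) * x)
    {s : ℝ} (hs : s < √2) (hy : ∀ v, ‖φ (ρ y v - v)‖ ≤ s * ‖φ v‖) : x * y = y * x := by
  classical
  -- `z = (y x y⁻¹) x⁻¹`
  set z : G := (y * x * y⁻¹) * x⁻¹ with hz
  have hzx : x * z = z * x := by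
    rw [hz, ← mul_assoc, hxy]
    group
  by_contra hne
  have hz1 : z ≠ 1 := by
    intro h1
    apply hne
    rw [hz, mul_inv_eq_one, mul_inv_eq_iff_eq_mul] at h1
    exact h1.symm
  -- an eigenvalue of `z` different from `1`
  obtain ⟨ζ, hζ, hW⟩ : ∃ ζ : ℂ, ζ ≠ 1 ∧ ∃ v : V, v ≠ 0 ∧ ρ z v = ζ • v := by
    by_contra hcon
    push Not at hcon
    apply hz1
    apply hρ
    rw [map_one]
    refine LinearMap.ext fun v => ?_
    obtain ⟨s, u, hu, rfl⟩ := exists_eigen_sum (ρ z) (n := Nat.card G) Nat.card_pos.ne'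
      (by rw [← map_pow, pow_card_eq_one', map_one]) v
    rw [map_sum, Module.End.one_apply]
    refine Finset.sum_congr rfl fun a ha => ?_
    by_cases ha1 : a = 1
    · rw [hu a ha, ha1, one_smul]
    · by_cases hu0 : u a = 0
      · rw [hu0, map_zero]
      · exact absurd (hu a ha) (hcon a ha1 (u a) hu0)
  let W : Submodule ℂ V := Module.End.eigenspace (ρ z) ζ
  have hWmem : ∀ v, v ∈ W ↔ ρ z v = ζ • v := fun v => Module.End.mem_eigenspace_iff
  have hWx : ∀ v ∈ W, ρ x v ∈ W := by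
    intro v hv
    rw [hWmem] at hv ⊢
    have h1 : ρ z (ρ x v) = ρ x (ρ z v) := by
      rw [← Module.End.mul_apply, ← map_mul, ← hzx, map_mul, Module.End.mul_apply]
    rw [h1, hv, map_smul]
  have : Nontrivial W := by
    obtain ⟨v, hv0, hv⟩ := hW
    exact ⟨⟨⟨v, (hWmem v).2 hv⟩, 0, fun h' => hv0 (congrArg Subtype.val h')⟩⟩
  obtain ⟨l, hl⟩ := Module.End.exists_eigenvalue ((ρ x).restrict hWx)
  obtain ⟨w, hw⟩ := hl.exists_hasEigenvector
  have hw1 : ρ x (w : V) = l • (w : V) := congrArg Subtype.val hw.apply_eq_smul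
  have hw0 : (w : V) ≠ 0 := fun h0 => hw.2 (Subtype.ext h0)
  have hw2 : ρ z (w : V) = ζ • (w : V) := (hWmem _).1 w.2
  have hl0 : l ≠ 0 := by
    intro h0
    have := h.norm_eigen hw0 hw1
    rw [h0, norm_zero] at this
    exact zero_ne_one this
  -- `w' = y⁻¹ w` is an eigenvector of `x` for the eigenvalue `ζ l`
  set w' : V := ρ y⁻¹ (w : V) with hw'
  have hyw' : ρ y w' = (w : V) := by
    rw [hw', ← Module.End.mul_apply, ← map_mul, mul_inv_cancel, map_one, Module.End.one_apply]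
  have h1 : ρ x w' = (ζ * l) • w' := by
    have h2 : ρ (y * x * y⁻¹) (w : V) = (ζ * l) • (w : V) := by
      have : y * x * y⁻¹ = z * x := by rw [hz]; group
      rw [this, map_mul, Module.End.mul_apply, hw1, map_smul, hw2, smul_smul, mul_comm]
    have h3 : ρ x w' = ρ y⁻¹ (ρ (y * x * y⁻¹) (w : V)) := by
      rw [hw', ← Module.End.mul_apply, ← map_mul, ← Module.End.mul_apply, ← map_mul]
      congr 2
      group
    rw [h3, h2, map_smul]
  have hne' : ζ * l ≠ l := by
    intro h'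
    exact hζ (mul_right_cancel₀ hl0 (by rw [h', one_mul]))
  have horth : inner ℂ (φ w') (φ (w : V)) = 0 := h.orth h1 hw1 hne'
  have h4 : ‖φ (w : V) - φ w'‖ ^ 2 = 2 * ‖φ w'‖ ^ 2 := by
    rw [norm_sub_sq (𝕜 := ℂ)]
    have h5 : inner ℂ (φ (w : V)) (φ w') = 0 := inner_eq_zero_symm.1 horth
    rw [h5]
    have h6 : ‖φ (w : V)‖ = ‖φ w'‖ := by rw [← hyw', h.norm]
    rw [h6]
    simp
    ring
  have h5 : ‖φ (w : V) - φ w'‖ ≤ s * ‖φ w'‖ := by
    have := hy w'
    rwa [hyw', map_sub] at this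
  have hpos : 0 < ‖φ w'‖ := by
    apply h.norm_pos
    intro h0
    apply hw0
    rw [← hyw', h0, map_zero]
  have hs0 : 0 ≤ s := by
    by_contra hs0
    push Not at hs0
    have : s * ‖φ w'‖ < 0 := mul_neg_of_neg_of_pos hs0 hpos
    exact absurd (le_trans (norm_nonneg _) h5) (not_le.2 this)
  have h6 : ‖φ (w : V) - φ w'‖ ^ 2 ≤ (s * ‖φ w'‖) ^ 2 := by gcongr
  have h7 : s ^ 2 < 2 := by
    have := Real.lt_sqrt hs0 (y := 2)
    exact this.1 hs
  rw [h4, mul_pow] at h6
  have h8 : 0 < ‖φ w'‖ ^ 2 := by positivity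
  nlinarith

/-- the norm estimate for commutators -/
theorem norm_commutator_le (h : Inv ρ φ) {x y : G} {c d : ℂ} {q s : ℝ}
    (hx : ∀ v, ‖φ (ρ x v - c • v)‖ ≤ q * ‖φ v‖)
    (hy : ∀ v, ‖φ (ρ y v - d • v)‖ ≤ s * ‖φ v‖) (hq : 0 ≤ q) (hs : 0 ≤ s) (v : V) :
    ‖φ (ρ (x * y * x⁻¹ * y⁻¹) v - v)‖ ≤ (2 * q * s) * ‖φ v‖ := by
  set w : V := ρ (x⁻¹ * y⁻¹) v with hw
  have hwv : ρ (y * x) w = v := by
    rw [hw, ← Module.End.mul_apply, ← map_mul]
    have : y * x * (x⁻¹ * y⁻¹) = 1 := by group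
    rw [this, map_one, Module.End.one_apply]
  have hw2 : ρ (x * y) w = ρ (x * y * x⁻¹ * y⁻¹) v := by
    rw [hw, ← Module.End.mul_apply, ← map_mul]
    congr 2
    group
  have hnw : ‖φ w‖ = ‖φ v‖ := by rw [hw, h.norm]
  have key : ρ (x * y) w - ρ (y * x) w =
      (ρ x (ρ y w - d • w) - c • (ρ y w - d • w)) - (ρ y (ρ x w - c • w) - d • (ρ x w - c • w)) := by
    simp only [map_mul, Module.End.mul_apply, map_sub, map_smul, smul_sub, smul_smul,
      mul_comm d c]
    abel
  have key2 : ρ (x * y * x⁻¹ * y⁻¹) v - v =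
      (ρ x (ρ y w - d • w) - c • (ρ y w - d • w)) -
        (ρ y (ρ x w - c • w) - d • (ρ x w - c • w)) := by
    rw [← key, hw2, hwv]
  rw [key2, map_sub]
  refine (norm_sub_le _ _).trans ?_
  have h1 := hx (ρ y w - d • w)
  have h2 := hy (ρ x w - c • w)
  have h3 := hx w
  have h4 := hy w
  rw [← hnw]
  calc _ ≤ q * ‖φ (ρ y w - d • w)‖ + s * ‖φ (ρ x w - c • w)‖ := add_le_add h1 h2
    _ ≤ q * (s * ‖φ w‖) + s * (q * ‖φ w‖) := by gcongr
    _ = _ := by ring

/-- **Frobenius, Blichfeldt.** If `‖ρ x - c‖ < 1/2` for some scalar `c` and `‖ρ y - 1‖ < √2`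
then `x` and `y` commute. -/
theorem comm_of_near [FiniteDimensional ℂ V] [Finite G] (h : Inv ρ φ)
    (hρ : Function.Injective ρ) {x y : G} {c : ℂ} {q s : ℝ} (hq0 : 0 ≤ q) (hq : q < 1 / 2)
    (hx : ∀ v, ‖φ (ρ x v - c • v)‖ ≤ q * ‖φ v‖) (hs0 : 0 ≤ s) (hs : s < √2)
    (hy : ∀ v, ‖φ (ρ y v - v)‖ ≤ s * ‖φ v‖) : x * y = y * x := by
  classical
  let Y : ℕ → G := fun k => Nat.rec y (fun _ z => x * z * x⁻¹ * z⁻¹) k
  have hY0 : Y 0 = y := rfl
  have hYs : ∀ k, Y (k + 1) = x * Y k * x⁻¹ * (Y k)⁻¹ := fun k => rfl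
  have hbound : ∀ k v, ‖φ (ρ (Y k) v - v)‖ ≤ ((2 * q) ^ k * s) * ‖φ v‖ := by
    intro k
    induction k with
    | zero =>
      intro v
      rw [pow_zero, one_mul, hY0]
      exact hy v
    | succ k ih =>
      intro v
      rw [hYs]
      have h1 := norm_commutator_le h (x := x) (y := Y k) (c := c) (d := 1) (q := q)
        (s := (2 * q) ^ k * s) hx (by simpa using ih) hq0 (by positivity) v
      refine h1.trans (le_of_eq ?_)
      ring
  have hs_le : ∀ k, (2 * q) ^ k * s ≤ s := by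
    intro k
    have : (2 * q) ^ k ≤ 1 := pow_le_one₀ (by positivity) (by linarith)
    nlinarith
  -- eventually `Y k = 1`
  obtain ⟨K, hK⟩ : ∃ K, Y K = 1 := by
    by_contra hcon
    push Not at hcon
    have hch : ∀ g : G, ∃ v : V, g ≠ 1 → ρ g v - v ≠ 0 := by
      intro g
      by_cases hg : g = 1
      · exact ⟨0, fun h' => absurd hg h'⟩
      · by_contra hc
        push Not at hc
        apply hg
        apply hρ
        rw [map_one]
        refine LinearMap.ext fun v => ?_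
        exact sub_eq_zero.1 (hc v).2
    choose v hv using hch
    have : Fintype G := Fintype.ofFinite G
    -- uniform lower bound
    have hδ : ∃ δ : ℝ, 0 < δ ∧ ∀ g : G, g ≠ 1 → δ * ‖φ (v g)‖ < ‖φ (ρ g (v g) - v g)‖ := by
      have h1 : ∀ g : G, ∃ δ : ℝ, 0 < δ ∧ (g ≠ 1 → ∀ δ' : ℝ, δ' ≤ δ →
          δ' * ‖φ (v g)‖ < ‖φ (ρ g (v g) - v g)‖) := by
        intro g
        by_cases hg : g = 1
        · exact ⟨1, one_pos, fun h' => absurd hg h'⟩
        · have h2 := h.norm_pos (hv g hg)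
          refine ⟨‖φ (ρ g (v g) - v g)‖ / (‖φ (v g)‖ + 1), by positivity, fun _ δ' hδ' => ?_⟩
          calc δ' * ‖φ (v g)‖ ≤ ‖φ (ρ g (v g) - v g)‖ / (‖φ (v g)‖ + 1) * ‖φ (v g)‖ := by
                gcongr
            _ < ‖φ (ρ g (v g) - v g)‖ / (‖φ (v g)‖ + 1) * (‖φ (v g)‖ + 1) := by
                have : 0 < ‖φ (ρ g (v g) - v g)‖ / (‖φ (v g)‖ + 1) := by positivity
                nlinarith
            _ = ‖φ (ρ g (v g) - v g)‖ := by
                field_simp
      choose δ hδ0 hδ1 using h1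
      obtain ⟨g₀, hg₀⟩ := Finite.exists_min δ
      exact ⟨δ g₀, hδ0 g₀, fun g hg => hδ1 g hg _ (hg₀ g)⟩
    obtain ⟨δ, hδ0, hδ⟩ := hδ
    have hlim : Filter.Tendsto (fun k : ℕ => (2 * q) ^ k * s) Filter.atTop (nhds 0) := by
      have := (tendsto_pow_atTop_nhds_zero_of_lt_one (r := 2 * q) (by positivity)
        (by linarith)).mul_const s
      rwa [zero_mul] at this
    obtain ⟨k, hk⟩ := (hlim.eventually (gt_mem_nhds hδ0)).exists
    have h1 := hbound k (v (Y k))
    have h2 := hδ (Y k) (hcon k)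
    have h3 : (2 * q) ^ k * s * ‖φ (v (Y k))‖ ≤ δ * ‖φ (v (Y k))‖ := by gcongr
    linarith
  -- backwards
  have hback : ∀ k, x * Y (k + 1) = Y (k + 1) * x → x * Y k = Y k * x := by
    intro k hk
    refine comm_of_comm_conj h hρ (s := (2 * q) ^ k * s) ?_ ((hs_le k).trans_lt hs) (hbound k)
    rw [hYs] at hk
    have h1 : Commute x (x * Y k * x⁻¹ * (Y k)⁻¹) := hk
    have h2 : Commute x (Y k * x⁻¹ * (Y k)⁻¹) := by
      have h3 : Y k * x⁻¹ * (Y k)⁻¹ = x⁻¹ * (x * Y k * x⁻¹ * (Y k)⁻¹) := by group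
      rw [h3]
      exact (Commute.refl x).inv_right.mul_right h1
    have h4 : Y k * x * (Y k)⁻¹ = (Y k * x⁻¹ * (Y k)⁻¹)⁻¹ := by group
    rw [h4]
    exact h2.inv_right
  have hall : ∀ j, j ≤ K → x * Y (K - j) = Y (K - j) * x := by
    intro j
    induction j with
    | zero =>
      intro _
      rw [Nat.sub_zero, hK, mul_one, one_mul]
    | succ j ih =>
      intro hj
      apply hback
      have : K - (j + 1) + 1 = K - j := by omega
      rw [this]
      exact ih (by omega)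
  have := hall K le_rfl
  rwa [Nat.sub_self, hY0] at this

end

end Cfsg.Agent.H599.Unitary
end

-- part: H599/Arc
section
/-!
# Diagonal abelian groups and the pigeonhole principle on the unit circle

* `exists_common_basis` : a representation of a finite abelian group is diagonal in some basis.
* `near_of_eigen` : the elements all of whose eigenvalues have real part `> √3/2` satisfy the
  hypotheses of `Unitary.comm_of_near`.
-/

set_option autoImplicit false

namespace Cfsg.Agent.H599.Arc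

open Module Cfsg.Agent.H599.Unitary

/-- Simultaneous diagonalisation. -/
theorem exists_common_basis {ι V : Type*} [AddCommGroup V] [Module ℂ V] [FiniteDimensional ℂ V]
    (f : ι → Module.End ℂ V) (hcomm : ∀ i j, f i * f j = f j * f i)
    (hfin : ∀ i, ∃ n : ℕ, n ≠ 0 ∧ f i ^ n = 1) :
    ∃ (b : Basis (Fin (finrank ℂ V)) ℂ V) (l : Fin (finrank ℂ V) → ι → ℂ),
      ∀ j i, f i (b j) = l j i • b j := by
  classical
  have hss : ∀ i, Module.End.IsSemisimple (f i) := by
    intro i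
    obtain ⟨n, hn, hf⟩ := hfin i
    refine Module.End.isSemisimple_of_squarefree_aeval_eq_zero (p := Polynomial.X ^ n - 1) ?_ ?_
    · have : (n : ℂ) ≠ 0 := by exact_mod_cast hn
      have h := Polynomial.separable_X_pow_sub_C (1 : ℂ) this one_ne_zero
      rw [map_one] at h
      exact h.squarefree
    · simp [hf]
  have hgen : ∀ i μ, (f i).maxGenEigenspace μ = (f i).eigenspace μ := fun i μ =>
    (hss i).isFinitelySemisimple.maxGenEigenspace_eq_eigenspace μ
  have htop := Module.End.iSup_iInf_maxGenEigenspace_eq_top_of_iSup_maxGenEigenspace_eq_top_of_commute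
    f (fun i j _ => hcomm i j) (fun i => by
      have := (hss i).iSup_eigenspace_eq_top
      rw [← this]
      exact iSup_congr fun μ => hgen i μ)
  have hind := Module.End.independent_iInf_maxGenEigenspace_of_forall_mapsTo f
    (fun i j φ => Module.End.mapsTo_maxGenEigenspace_of_comm (hcomm j i) φ)
  have hint : DirectSum.IsInternal (fun χ : ι → ℂ => ⨅ i, (f i).maxGenEigenspace (χ i)) := by
    rw [DirectSum.isInternal_submodule_iff_iSupIndep_and_iSup_eq_top]
    exact ⟨hind, htop⟩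
  let b₀ := hint.collectedBasis (fun χ => Module.finBasis ℂ
    (⨅ i, (f i).maxGenEigenspace (χ i) : Submodule ℂ V))
  have hb₀ : ∀ j i, f i (b₀ j) = j.1 i • b₀ j := by
    intro j i
    have h1 := hint.collectedBasis_mem (fun χ => Module.finBasis ℂ
      (⨅ i, (f i).maxGenEigenspace (χ i) : Submodule ℂ V)) j
    have h2 := (Submodule.mem_iInf _).1 h1 i
    rw [hgen] at h2
    exact Module.End.mem_eigenspace_iff.1 h2
  have : Fintype (Σ χ : ι → ℂ, Fin (finrank ℂ
      (⨅ i, (f i).maxGenEigenspace (χ i) : Submodule ℂ V))) :=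
    FiniteDimensional.fintypeBasisIndex b₀
  have e : (Σ χ : ι → ℂ, Fin (finrank ℂ
      (⨅ i, (f i).maxGenEigenspace (χ i) : Submodule ℂ V))) ≃ Fin (finrank ℂ V) :=
    Fintype.equivFinOfCardEq (Module.finrank_eq_card_basis b₀).symm
  refine ⟨b₀.reindex e, fun j => (e.symm j).1, fun j i => ?_⟩
  rw [Basis.reindex_apply]
  exact hb₀ _ _

/-- The eigenvalues of a diagonal operator. -/
theorem eigenvalue_mem {ι V : Type*} [AddCommGroup V] [Module ℂ V]
    (b : Basis ι ℂ V) (f : Module.End ℂ V) (l : ι → ℂ) (hb : ∀ i, f (b i) = l i • b i)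
    {a : ℂ} {v : V} (hv : v ≠ 0) (ha : f v = a • v) : ∃ i, l i = a := by
  classical
  obtain ⟨i, hi⟩ : ∃ i, b.repr v i ≠ 0 := by
    by_contra hcon
    push Not at hcon
    apply hv
    apply b.repr.injective
    rw [map_zero]
    ext i
    exact hcon i
  refine ⟨i, ?_⟩
  have h1 : ∀ w : V, b.repr (f w) i = l i * b.repr w i := by
    intro w
    have h2 : ((Finsupp.lapply i).comp b.repr.toLinearMap).comp f =
        (l i) • ((Finsupp.lapply i).comp b.repr.toLinearMap) := by
      refine b.ext fun j => ?_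
      simp only [LinearMap.comp_apply, LinearMap.smul_apply, LinearEquiv.coe_coe, hb, map_smul,
        Basis.repr_self, Finsupp.lapply_apply, smul_eq_mul]
      by_cases hij : j = i
      · rw [hij]
      · rw [Finsupp.single_eq_of_ne (fun h => hij h.symm)]; simp
    have h3 := LinearMap.congr_fun h2 w
    simpa using h3
  have h2 := h1 v
  rw [ha, map_smul, Finsupp.smul_apply, smul_eq_mul] at h2
  exact (mul_right_cancel₀ hi h2).symm

/-- The constant `cos (π / 6)`. -/
noncomputable def cc : ℂ := ((√3 / 2 : ℝ) : ℂ)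

theorem norm_sub_cc_lt {a : ℂ} (ha : ‖a‖ = 1) (hre : √3 / 2 < a.re) : ‖a - cc‖ < 1 / 2 := by
  have h1 : ‖a - cc‖ ^ 2 < (1 / 2) ^ 2 := by
    have h2 : a.re ^ 2 + a.im ^ 2 = 1 := by
      have := Complex.sq_norm a
      rw [ha, Complex.normSq_apply] at this
      nlinarith
    have h3 : √3 ^ 2 = 3 := Real.sq_sqrt (by norm_num)
    have h4 : 0 < √3 := by positivity
    rw [Complex.sq_norm, Complex.normSq_apply]
    simp only [cc, Complex.sub_re, Complex.ofReal_re, Complex.sub_im, Complex.ofReal_im, sub_zero]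
    nlinarith
  exact (pow_lt_pow_iff_left₀ (norm_nonneg _) (by norm_num) two_ne_zero).1 h1

theorem norm_one_sub_cc : ‖cc - 1‖ ≤ 1 / 2 := by
  have h3 : √3 ^ 2 = 3 := Real.sq_sqrt (by norm_num)
  have h4 : 0 < √3 := by positivity
  have h5 : √3 ≤ 2 := by nlinarith
  have h6 : 1 ≤ √3 := by nlinarith
  have : cc - 1 = (((√3 / 2 : ℝ) - 1 : ℝ) : ℂ) := by
    rw [cc]; push_cast; ring
  rw [this, Complex.norm_real, Real.norm_eq_abs, abs_le]
  constructor <;> linarith

/-- finitely many numbers smaller than `1/2` -/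
theorem exists_uniform {ι : Type*} [Finite ι] (f : ι → ℝ) (hf : ∀ i, f i < 1 / 2) :
    ∃ q : ℝ, 0 ≤ q ∧ q < 1 / 2 ∧ ∀ i, f i ≤ q := by
  rcases isEmpty_or_nonempty ι with hι | hι
  · exact ⟨0, le_rfl, by norm_num, fun i => (hι.false i).elim⟩
  · obtain ⟨i₀, hi₀⟩ := Finite.exists_max f
    exact ⟨max 0 (f i₀), le_max_left _ _, max_lt (by norm_num) (hf i₀),
      fun i => (hi₀ i).trans (le_max_right _ _)⟩

section

variable {G : Type*} [Group G] [Finite G] {V : Type*} [AddCommGroup V] [Module ℂ V]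
  [FiniteDimensional ℂ V] {E : Type*} [NormedAddCommGroup E] [InnerProductSpace ℂ E]
  {ρ : Representation ℂ G V} {φ : V →ₗ[ℂ] E}

/-- Elements all of whose eigenvalues are close to `cc`. -/
def IsNear (ρ : Representation ℂ G V) (x : G) : Prop :=
  ∀ (a : ℂ) (v : V), v ≠ 0 → ρ x v = a • v → √3 / 2 < a.re

omit [Finite G] [FiniteDimensional ℂ V] in
theorem IsNear.conj {x : G} (hx : IsNear ρ x) (g : G) : IsNear ρ (g * x * g⁻¹) := by
  intro a v hv h
  refine hx a (ρ g⁻¹ v) ?_ ?_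
  · intro h0
    apply hv
    have : ρ g (ρ g⁻¹ v) = v := by
      rw [← Module.End.mul_apply, ← map_mul, mul_inv_cancel, map_one, Module.End.one_apply]
    rw [← this, h0, map_zero]
  · have : ρ x (ρ g⁻¹ v) = ρ g⁻¹ (ρ (g * x * g⁻¹) v) := by
      rw [← Module.End.mul_apply, ← map_mul, ← Module.End.mul_apply, ← map_mul]
      congr 2
      group
    rw [this, h, map_smul]

theorem exists_eigenbasis (ρ : Representation ℂ G V) (x : G) :
    ∃ (b : Basis (Fin (finrank ℂ V)) ℂ V) (l : Fin (finrank ℂ V) → ℂ),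
      ∀ j, ρ x (b j) = l j • b j := by
  obtain ⟨b, l, h⟩ := exists_common_basis (fun _ : Unit => ρ x) (fun _ _ => rfl)
    (fun _ => ⟨Nat.card G, Nat.card_pos.ne', by rw [← map_pow, pow_card_eq_one', map_one]⟩)
  exact ⟨b, fun j => l j (), fun j => h j ()⟩

theorem near_norm (h : Inv ρ φ) {x : G} (hx : IsNear ρ x) :
    ∃ q : ℝ, 0 ≤ q ∧ q < 1 / 2 ∧ ∀ v, ‖φ (ρ x v - cc • v)‖ ≤ q * ‖φ v‖ := by
  obtain ⟨b, l, hb⟩ := exists_eigenbasis ρ x
  obtain ⟨q, hq0, hq, hql⟩ := exists_uniform (fun i => ‖l i - cc‖) (fun i =>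
    norm_sub_cc_lt (h.norm_eigen (b.ne_zero i) (hb i)) (hx _ _ (b.ne_zero i) (hb i)))
  refine ⟨q, hq0, hq, eigen_norm_sub_le h x cc q hq0 fun a v hv ha => ?_⟩
  obtain ⟨i, rfl⟩ := eigenvalue_mem b (ρ x) l hb hv ha
  exact hql i

theorem comm_of_isNear (h : Inv ρ φ) (hρ : Function.Injective ρ) {x y : G}
    (hx : IsNear ρ x) (hy : IsNear ρ y) : x * y = y * x := by
  obtain ⟨q, hq0, hq, hqx⟩ := near_norm h hx
  obtain ⟨s, hs0, hs, hsy⟩ := near_norm h hy
  refine comm_of_near h hρ (s := s + 1 / 2) hq0 hq hqx (by positivity) ?_ ?_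
  · have : (1 : ℝ) < √2 := by
      rw [Real.lt_sqrt (by norm_num)]; norm_num
    linarith
  · intro v
    have h1 : ρ y v - v = (ρ y v - cc • v) + (cc - 1) • v := by
      rw [sub_smul, one_smul]; abel
    rw [h1, map_add, map_smul]
    refine (norm_add_le _ _).trans ?_
    rw [norm_smul, add_mul]
    have h2 := norm_one_sub_cc
    have h3 := norm_nonneg (φ v)
    have h4 := hsy v
    nlinarith

/-- The subgroup generated by the elements near `1`. -/
def nearSubgroup (ρ : Representation ℂ G V) : Subgroup G := Subgroup.closure {x | IsNear ρ x}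

omit [Finite G] [FiniteDimensional ℂ V] in
theorem nearSubgroup_normal (ρ : Representation ℂ G V) : (nearSubgroup ρ).Normal := by
  constructor
  intro n hn g
  have h1 : (nearSubgroup ρ).map (MulAut.conj g).toMonoidHom ≤ nearSubgroup ρ := by
    rw [nearSubgroup, MonoidHom.map_closure]
    apply Subgroup.closure_mono
    rintro _ ⟨x, hx, rfl⟩
    exact IsNear.conj hx g
  exact h1 ⟨n, hn, rfl⟩

theorem nearSubgroup_comm (h : Inv ρ φ) (hρ : Function.Injective ρ) :
    ∀ x ∈ nearSubgroup ρ, ∀ y ∈ nearSubgroup ρ, x * y = y * x := by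
  intro x hx y hy
  have h1 : nearSubgroup ρ ≤ Subgroup.centralizer {x | IsNear ρ x} := by
    rw [nearSubgroup, Subgroup.closure_le]
    intro a ha
    rw [SetLike.mem_coe, Subgroup.mem_centralizer_iff]
    intro b hb
    exact comm_of_isNear h hρ hb ha
  have h2 : nearSubgroup ρ ≤ Subgroup.centralizer (nearSubgroup ρ : Set G) := by
    conv_lhs => rw [nearSubgroup]
    rw [Subgroup.closure_le]
    intro a ha
    rw [SetLike.mem_coe, Subgroup.mem_centralizer_iff]
    intro b hb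
    exact ((Subgroup.mem_centralizer_iff.1 (h1 hb)) a ha).symm
  exact (Subgroup.mem_centralizer_iff.1 (h2 hy)) x hx

/-- The cell of an argument: twelve half open arcs of length `π / 6`. -/
noncomputable def cell (a : ℂ) : ℤ := ⌈Complex.arg a * 6 / Real.pi⌉

theorem cell_mem (a : ℂ) : cell a ∈ Finset.Ioc (-6 : ℤ) 6 := by
  have hpi := Real.pi_pos
  rw [Finset.mem_Ioc, cell]
  constructor
  · rw [Int.lt_ceil]
    have := Complex.neg_pi_lt_arg a
    rw [lt_div_iff₀ hpi]
    push_cast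
    linarith
  · rw [Int.ceil_le]
    have := Complex.arg_le_pi a
    rw [div_le_iff₀ hpi]
    push_cast
    linarith

theorem re_of_cell {a b : ℂ} (ha : ‖a‖ = 1) (hb : ‖b‖ = 1) (hab : cell a = cell b) :
    √3 / 2 < (a⁻¹ * b).re := by
  have hpi := Real.pi_pos
  have hd : |Complex.arg b - Complex.arg a| < Real.pi / 6 := by
    have h1 := Int.le_ceil (Complex.arg a * 6 / Real.pi)
    have h2 := Int.ceil_lt_add_one (Complex.arg a * 6 / Real.pi)
    have h3 := Int.le_ceil (Complex.arg b * 6 / Real.pi)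
    have h4 := Int.ceil_lt_add_one (Complex.arg b * 6 / Real.pi)
    rw [cell, cell] at hab
    rw [hab] at h1 h2
    have h5 : Complex.arg b * 6 / Real.pi - Complex.arg a * 6 / Real.pi < 1 := by linarith
    have h6 : Complex.arg a * 6 / Real.pi - Complex.arg b * 6 / Real.pi < 1 := by linarith
    rw [← sub_div, div_lt_one hpi] at h5 h6
    rw [abs_lt]
    constructor <;> linarith
  have hea : a = Complex.exp (Complex.arg a * Complex.I) := by
    have := Complex.norm_mul_exp_arg_mul_I a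
    rw [ha] at this
    simpa using this.symm
  have heb : b = Complex.exp (Complex.arg b * Complex.I) := by
    have := Complex.norm_mul_exp_arg_mul_I b
    rw [hb] at this
    simpa using this.symm
  have h7 : a⁻¹ * b = Complex.exp (((Complex.arg b - Complex.arg a : ℝ) : ℂ) * Complex.I) := by
    conv_lhs => rw [hea, heb]
    rw [← Complex.exp_neg, ← Complex.exp_add]
    congr 1
    push_cast
    ring
  rw [h7, Complex.exp_ofReal_mul_I_re, ← Real.cos_abs, ← Real.cos_pi_div_six]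
  apply Real.cos_lt_cos_of_nonneg_of_le_pi (abs_nonneg _)
  · linarith
  · exact hd

/-- Pigeonhole: an abelian subgroup meets the near subgroup in a subgroup of index at most
`12 ^ n`. -/
theorem index_le (h : Inv ρ φ) (H : Subgroup G)
    (hH : ∀ x ∈ H, ∀ y ∈ H, x * y = y * x) :
    ((nearSubgroup ρ).subgroupOf H).index ≤ 12 ^ finrank ℂ V := by
  classical
  obtain ⟨b, l, hb⟩ := exists_common_basis (fun x : H => ρ x)
    (fun x y => by rw [← map_mul, ← map_mul, hH x x.2 y y.2])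
    (fun x => ⟨Nat.card G, Nat.card_pos.ne', by
      rw [← map_pow, pow_card_eq_one', map_one]⟩)
  have hnorm : ∀ j (x : H), ‖l j x‖ = 1 := fun j x => h.norm_eigen (b.ne_zero j) (hb j x)
  let f : H → (Fin (finrank ℂ V) → Finset.Ioc (-6 : ℤ) 6) := fun x j => ⟨cell (l j x), cell_mem _⟩
  have hf : ∀ x y : H, f x = f y → (x : G)⁻¹ * (y : G) ∈ nearSubgroup ρ := by
    intro x y hxy
    apply Subgroup.subset_closure
    intro a v hv ha
    have hb' : ∀ j, ρ ((x : G)⁻¹ * (y : G)) (b j) = ((l j x)⁻¹ * l j y) • b j := by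
      intro j
      have h1 : ρ (x : G)⁻¹ (b j) = (l j x)⁻¹ • b j := by
        have h2 : ρ (x : G)⁻¹ (ρ (x : G) (b j)) = b j := by
          rw [← Module.End.mul_apply, ← map_mul, inv_mul_cancel, map_one, Module.End.one_apply]
        rw [hb j x, map_smul] at h2
        have h3 : l j x ≠ 0 := by
          intro h0
          have := hnorm j x
          rw [h0, norm_zero] at this
          exact zero_ne_one this
        calc ρ (x : G)⁻¹ (b j) = (l j x)⁻¹ • (l j x • ρ (x : G)⁻¹ (b j)) := by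
              rw [smul_smul, inv_mul_cancel₀ h3, one_smul]
          _ = _ := by rw [h2]
      rw [map_mul, Module.End.mul_apply, hb j y, map_smul, h1, smul_smul, mul_comm]
    obtain ⟨j, rfl⟩ := eigenvalue_mem b _ _ hb' hv ha
    apply re_of_cell (hnorm j x) (hnorm j y)
    exact congrArg (fun g => ((g j : Finset.Ioc (-6 : ℤ) 6) : ℤ)) hxy
  have hcard : Nat.card (Fin (finrank ℂ V) → Finset.Ioc (-6 : ℤ) 6) = 12 ^ finrank ℂ V := by
    rw [Nat.card_fun, Nat.card_eq_fintype_card, Nat.card_eq_fintype_card, Fintype.card_fin,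
      Fintype.card_coe, Int.card_Ioc]
    rfl
  rw [← hcard, Subgroup.index]
  apply Nat.card_le_card_of_injective (fun q : H ⧸ (nearSubgroup ρ).subgroupOf H =>
    f (Quotient.out q))
  intro q r hqr
  have h1 := hf _ _ hqr
  rw [← Quotient.out_eq q, ← Quotient.out_eq r]
  apply QuotientGroup.eq.2
  exact h1

end

end Cfsg.Agent.H599.Arc
end
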